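import Cfsg.Agent.H382.Ore3.Co3FData
import Cfsg.Agent.H143.Co3Five
import Cfsg.Agent.H777.Ore.Base

/-!
# The elements of 5-power order of `Co₃` are commutators (helper382)

Every element of 5-power order is conjugate to one of the 125 normal forms of the Sylow 5-subgroup of `H143/Co3Five.lean`;
every normal form is connected by a chain of conjugations to a normal form inverted by a letter; elements of odd order which are
conjugate to their inverses are commutators.
-/

set_option autoImplicit false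

namespace Cfsg.Agent.H382.Ore3.Co3Five

open Subgroup Cfsg Cfsg.Agent.Lib.PackMat Cfsg.Agent.SporRec.LeechMod3 Cfsg.Agent.SporRec.LeechChain
  Cfsg.Agent.SporRec.Co3.MatData Cfsg.Agent.SporRec.Co3.ChainData Cfsg.Agent.SporRec.Co3.Chain
  Cfsg.Agent.H526.PcNf Cfsg.Agent.H143.Co3FiveData Cfsg.Agent.H143.Co3Five Cfsg.Agent.H317.RO.Co3Data
  Cfsg.Agent.H382.Ore3.Co3FData Cfsg.Agent.H777.Ore
open Cfsg.Agent.H970.Ore (Base6.eq_of_rows Tab.PT Tab.PT.word Tab.PT.congr Tab.gv Tab.gv_append Tab.val Tab.pt_val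
  Tab.bs Tab.exists_bs Tab.row_ok Tab.eq_of_pt)

/-- the polycyclic sequence -/
theorem q_spec {k : ℕ} (hk : k < 3) : okG cfg (gs12.getD (8 + k) 0) = true ∧
    rho (H143.Co3Five.q k : Co0) = mt (gs12.getD (8 + k) 0) := by
  have h := spec5 (8 + k) (by show 8 + k < 12; omega)
  have e : K (8 + k) = H143.Co3Five.q k := by
    interval_cases k <;> rfl
  rwa [e] at h

theorem p_eq {k : ℕ} (hk : k < 3) : H143.Co3Five.q k = H970.Ore.Tab.val (qw k) := by
  apply H970.Ore.Base6.eq_of_rows
  intro R hR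
  obtain ⟨b, hb, hb5, rfl⟩ := H970.Ore.Tab.exists_bs hR
  have h := List.all_eq_true.1 pOK_all k (List.mem_range.2 hk)
  have h1 := Nat.eq_of_beq_eq_true (List.all_eq_true.1 h b hb)
  have ht := List.all_eq_true.1 tOK_all k (List.mem_range.2 (by omega))
  unfold tOK at ht
  rw [Bool.and_eq_true] at ht
  have hs := q_spec hk
  obtain ⟨-, h3⟩ := run_rv (w := [gs12.getD (8 + k) 0]) (by
    intro g hg
    rw [List.mem_singleton] at hg
    rw [hg]
    exact hs.1) (H970.Ore.Tab.row_ok hb5)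
  rw [h1, List.map_cons, List.map_nil, List.prod_cons, List.prod_nil, mul_one, ← hs.2] at h3
  rw [((H970.Ore.Tab.pt_val ht.1) b hb5).2, h3]
  rfl

/-- the letters -/
noncomputable def qq (k : ℕ) : G3 := H970.Ore.Tab.val (qw k)

theorem p_eq_q {k : ℕ} (hk : k < 3) : H143.Co3Five.q k = qq k := p_eq hk

theorem pt_q {k : ℕ} (hk : k < 5) : H970.Ore.Tab.PT (qq k) (tb k) := by
  have ht := List.all_eq_true.1 tOK_all k (List.mem_range.2 hk)
  unfold tOK at ht
  rw [Bool.and_eq_true] at ht
  refine (H970.Ore.Tab.pt_val ht.1).congr fun i hi => Nat.eq_of_beq_eq_true (allBelow_spec ht.2 i hi)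

theorem eq_of_chk3 {u v : List ℕ} (h : chk3 u v = true) : (u.map qq).prod = (v.map qq).prod := by
  unfold chk3 at h
  rw [Bool.and_eq_true, Bool.and_eq_true] at h
  obtain ⟨⟨h1, h2⟩, h3⟩ := h
  have key : ∀ w : List ℕ, (w.all fun k => Nat.blt k 5) = true → H970.Ore.Tab.PT (H970.Ore.Tab.gv qq w) (run2 w) := by
    intro w hw
    refine H970.Ore.Tab.PT.word (t := tb) fun k hk => pt_q ?_
    have := List.all_eq_true.1 hw k hk
    rwa [Nat.blt_eq] at this
  exact H970.Ore.Tab.eq_of_pt (key u h1) (key v h2) fun b hb => Nat.eq_of_beq_eq_true (List.all_eq_true.1 h3 b hb)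

theorem map_nfw (N : ℕ) : ((nfw 5 3 0 N).map qq).prod = ((nfw 5 3 0 N).map H143.Co3Five.q).prod := by
  congr 1
  apply List.map_congr_left
  intro i hi
  have := nfw_mem hi
  exact (p_eq_q (by omega)).symm

/-- the normal forms of 5-power order are commutators -/
theorem main_nf (r : ℕ) : ∀ N < 125, rk N = r → (∃ m, ((nfw 5 3 0 N).map H143.Co3Five.q).prod ^ 5 ^ m = 1) →
    IsC ((nfw 5 3 0 N).map H143.Co3Five.q).prod := by
  induction r using Nat.strong_induction_on with
  | _ r ih =>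
  intro N hN hr hm
  have h := List.all_eq_true.1 ok_all N (List.mem_range.2 hN)
  unfold okN at h
  cases h0 : Nat.beq N 0 with
  | true =>
    rw [Nat.beq_eq] at h0
    subst h0
    rw [show nfw 5 3 0 0 = [] by decide]
    exact isC_one
  | false =>
    rw [h0, cond_false] at h
    obtain ⟨a, ha⟩ : ∃ a, a = Nat.mod (Nat.div (dgt N) 4) 16 := ⟨_, rfl⟩
    obtain ⟨M, hM⟩ : ∃ M, M = Nat.mod (Nat.div (dgt N) 64) 4096 := ⟨_, rfl⟩
    rw [← ha, ← hM] at h
    cases h1 : Nat.beq (Nat.mod (dgt N) 4) 1 with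
    | true =>
      rw [h1, cond_true] at h
      have h2 := eq_of_chk3 h
      rw [List.map_append, List.prod_append, List.map_cons, List.prod_cons, map_nfw, List.map_cons, List.prod_cons,
        List.map_nil, List.prod_nil, mul_one] at h2
      obtain ⟨m, hm⟩ := hm
      generalize ((nfw 5 3 0 N).map H143.Co3Five.q).prod = x at *
      refine isC_of_real_odd (b := (qq a)) ?_ ?_
      · have h3 : x * (qq a * x * (qq a)⁻¹) = 1 := by
          rw [← mul_assoc, ← mul_assoc, mul_assoc x, h2, mul_inv_cancel]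
        exact (inv_eq_of_mul_eq_one_right h3).symm
      · have h3 : orderOf x ∣ 5 ^ m := orderOf_dvd_of_pow_eq_one hm
        exact Odd.of_dvd_nat (Odd.pow (by decide)) h3
    | false =>
      rw [h1, cond_false, Bool.and_eq_true, Bool.and_eq_true, Nat.blt_eq, Nat.blt_eq] at h
      obtain ⟨hM1, hrk, hchk⟩ := h
      have h2 := eq_of_chk3 hchk
      rw [List.map_append, List.prod_append, List.map_cons, List.prod_cons, map_nfw, List.map_cons, List.prod_cons,
        List.map_nil, List.prod_nil, mul_one, map_nfw] at h2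
      have h3 : ((nfw 5 3 0 M).map H143.Co3Five.q).prod = (qq a)⁻¹ * ((nfw 5 3 0 N).map H143.Co3Five.q).prod * qq a := by
        rw [mul_assoc, h2]; group
      have h4 : IsC ((nfw 5 3 0 M).map H143.Co3Five.q).prod := by
        refine ih (rk M) (by omega) M hM1 rfl ?_
        obtain ⟨m, hm⟩ := hm
        refine ⟨m, ?_⟩
        rw [h3]
        have h5 := conj_pow (a := (qq a)⁻¹) (b := ((nfw 5 3 0 N).map H143.Co3Five.q).prod) (i := 5 ^ m)
        rw [inv_inv] at h5
        rw [h5, hm]; group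
      have h5 := h4.conj (qq a)
      rw [h3] at h5
      have h6 : qq a * ((qq a)⁻¹ * ((nfw 5 3 0 N).map H143.Co3Five.q).prod * qq a) * (qq a)⁻¹ = ((nfw 5 3 0 N).map H143.Co3Five.q).prod := by group
      rwa [h6] at h5

/-- **the elements of 5-power order are commutators** -/
theorem isC_of_five {x : G3} {m : ℕ} (h3 : x ^ 5 ^ m = 1) : IsC x := by
  have : Fact (Nat.Prime 5) := ⟨by norm_num⟩
  have := Cfsg.Agent.H143.Co3Inv.finG3
  obtain ⟨S, hS⟩ := exists_sylow5
  have hz : IsPGroup 5 (zpowers x) := by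
    intro y
    obtain ⟨k, hk⟩ := mem_zpowers_iff.1 y.2
    refine ⟨m, Subtype.ext ?_⟩
    have : (x ^ k) ^ 5 ^ m = 1 := by rw [← zpow_natCast, ← zpow_mul, mul_comm, zpow_mul, zpow_natCast, h3, one_zpow]
    simpa [← hk] using this
  obtain ⟨R, hR⟩ := hz.exists_le_sylow
  obtain ⟨g, hg⟩ := MulAction.exists_smul_eq G3 R S
  have hx : g * x * g⁻¹ ∈ S := by
    rw [← hg]
    exact ⟨x, hR (mem_zpowers x), rfl⟩
  have hx' : g * x * g⁻¹ ∈ closure (Sk 3 H143.Co3Five.q 0) := by rw [← hS]; exact hx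
  obtain ⟨N, hN, e⟩ := pc5.exists_nf' (by norm_num) hx'
  refine IsC.of_conj g ?_
  rw [e]
  refine main_nf _ N hN rfl ⟨m, ?_⟩
  rw [← e, conj_pow, h3, mul_one, mul_inv_cancel]

end Cfsg.Agent.H382.Ore3.Co3Five
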